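import Cfsg.Agent.Sz.Part
import Cfsg.Agent.Cover.Basic

/-! Central extensions of the Suzuki groups. -/

set_option autoImplicit false

namespace Cfsg.Agent.Sz

open scoped commutatorElement

theorem comm_mul_left' {E : Type*} [Group E] (x y c : E) (h : x * ⁅y, c⁆ = ⁅y, c⁆ * x) :
    ⁅x * y, c⁆ = ⁅y, c⁆ * ⁅x, c⁆ := by
  calc ⁅x * y, c⁆ = (x * ⁅y, c⁆) * x⁻¹ * ⁅x, c⁆ := by simp only [commutatorElement_def]; group
    _ = _ := by rw [h]; group

theorem comm_mul_right' {E : Type*} [Group E] (x y c : E) (h : x * ⁅c, y⁆ = ⁅c, y⁆ * x) :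
    ⁅c, x * y⁆ = ⁅c, x⁆ * ⁅c, y⁆ := by
  calc ⁅c, x * y⁆ = ⁅c, x⁆ * ((x * ⁅c, y⁆) * x⁻¹) := by simp only [commutatorElement_def]; group
    _ = _ := by rw [h]; group

theorem conj_comm' {E : Type*} [Group E] (t x y : E) :
    t * ⁅x, y⁆ * t⁻¹ = ⁅t * x * t⁻¹, t * y * t⁻¹⁆ := by
  simp only [commutatorElement_def]; group

namespace Model

variable {G : Type*} [Group G] {F : Type*} [Field F] {m : ℕ} (M : Model G F m)
variable {E : Type*} [Group E] {π : E →* G} (hπ : Function.Surjective π)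
  (hc : π.ker ≤ Subgroup.center E)

/-- the commutator pairing between `Z` and `Q` in a central extension -/
noncomputable def beta (b x y : F) : E := ⁅Function.surjInv hπ (M.u 0 b), Function.surjInv hπ (M.u x y)⁆

theorem beta_mem (b x y : F) : M.beta hπ b x y ∈ π.ker := by
  rw [MonoidHom.mem_ker, beta, map_commutatorElement, Function.surjInv_eq hπ, Function.surjInv_eq hπ,
    commutatorElement_eq_one_iff_mul_comm, z_comm]

include hc

theorem beta_eq {b x y : F} {e f : E} (he : π e = M.u 0 b) (hf : π f = M.u x y) :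
    ⁅e, f⁆ = M.beta hπ b x y :=
  Cover.comm_eq_of_map_eq hc (by rw [he, Function.surjInv_eq hπ]) (by rw [hf, Function.surjInv_eq hπ])

theorem beta_comm (b x y : F) (e : E) : e * M.beta hπ b x y = M.beta hπ b x y * e :=
  Subgroup.mem_center_iff.mp (hc (M.beta_mem hπ b x y)) e

theorem beta_add_left (b b' x y : F) :
    M.beta hπ (b + b') x y = M.beta hπ b x y * M.beta hπ b' x y := by
  rw [← M.beta_eq hπ hc (e := Function.surjInv hπ (M.u 0 b') * Function.surjInv hπ (M.u 0 b))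
    (f := Function.surjInv hπ (M.u x y))
    (by rw [map_mul, Function.surjInv_eq hπ, Function.surjInv_eq hπ, z_mul, add_comm])
    (Function.surjInv_eq hπ _)]
  exact comm_mul_left' _ _ _ (M.beta_comm hπ hc b x y _)

theorem beta_mul_right (b x y x' y' : F) :
    M.beta hπ b (x + x') (y + y' + M.σ x * x') = M.beta hπ b x y * M.beta hπ b x' y' := by
  rw [← M.beta_eq hπ hc (e := Function.surjInv hπ (M.u 0 b))
    (f := Function.surjInv hπ (M.u x y) * Function.surjInv hπ (M.u x' y'))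
    (Function.surjInv_eq hπ _)
    (by rw [map_mul, Function.surjInv_eq hπ, Function.surjInv_eq hπ, u_mul])]
  exact comm_mul_right' _ _ _ (M.beta_comm hπ hc b x' y' _)

theorem beta_zero (x y : F) : M.beta hπ 0 x y = 1 := by
  have := M.beta_add_left hπ hc 0 0 x y
  simpa using this

theorem beta_sq (b x y : F) : M.beta hπ b x y * M.beta hπ b x y = 1 := by
  haveI := M.char2
  rw [← beta_add_left _ _ hc, CharTwo.add_self_eq_zero, beta_zero _ _ hc]

theorem beta_z (b y : F) : M.beta hπ b 0 y = 1 := by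
  haveI := M.char2
  obtain ⟨a, rfl⟩ := M.mul_σ_surj y
  have := M.beta_mul_right hπ hc b a 0 a 0
  rw [beta_sq _ _ hc, CharTwo.add_self_eq_zero] at this
  simpa [mul_comm] using this

theorem beta_snd (b x y : F) : M.beta hπ b x y = M.beta hπ b x 0 := by
  have := M.beta_mul_right hπ hc b x 0 0 y
  rw [beta_z _ _ hc] at this
  simpa using this

theorem beta_add_right (b x x' : F) :
    M.beta hπ b (x + x') 0 = M.beta hπ b x 0 * M.beta hπ b x' 0 := by
  rw [← beta_mul_right _ _ hc, M.beta_snd hπ hc b _ (0 + 0 + _)]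

theorem beta_inv (k : Fˣ) (b x : F) :
    M.beta hπ (k * M.σ k * b) (k * x) 0 = M.beta hπ b x 0 := by
  set t := Function.surjInv hπ (M.h k)
  have ht : π t = M.h k := Function.surjInv_eq hπ _
  have := conj_comm' t (Function.surjInv hπ (M.u 0 b)) (Function.surjInv hπ (M.u x 0))
  rw [M.beta_eq hπ hc (b := k * M.σ k * b) (x := k * x) (y := 0)
    (e := t * Function.surjInv hπ (M.u 0 b) * t⁻¹)
    (by rw [map_mul, map_mul, map_inv, ht, Function.surjInv_eq hπ, h_conj_u, mul_zero])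
    (by rw [map_mul, map_mul, map_inv, ht, Function.surjInv_eq hπ, h_conj_u, mul_zero])] at this
  rw [← this]
  change t * M.beta hπ b x 0 * t⁻¹ = _
  rw [beta_comm _ _ hc, mul_inv_cancel_right]

theorem beta_eq_lam (b : F) {x : F} (hx : x ≠ 0) :
    M.beta hπ b x 0 = M.beta hπ (b / (x * M.σ x)) 1 0 := by
  have := M.beta_inv hπ hc (Units.mk0 x hx) (b / (x * M.σ x)) 1
  rw [← this, Units.val_mk0, mul_one, mul_div_cancel₀ _ (mul_ne_zero hx (M.σ_ne_zero hx))]

theorem lam_one : M.beta hπ 1 1 0 = 1 := by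
  rw [← M.beta_eq hπ hc (e := Function.surjInv hπ (M.u 1 0) ^ 2) (f := Function.surjInv hπ (M.u 1 0))
    (by rw [map_pow, Function.surjInv_eq hπ, u_sq]; simp) (Function.surjInv_eq hπ _),
    commutatorElement_eq_one_iff_mul_comm, ← pow_succ, ← pow_succ']

theorem lam_trivial (hm : 2 ≤ m) (b : F) : M.beta hπ b 1 0 = 1 := by
  haveI := M.char2
  haveI := M.finF
  haveI := Fintype.ofFinite F
  by_contra hb
  have key : ∀ a : F, a ≠ 0 → a + 1 ≠ 0 →
      ((a + 1) * M.σ (a + 1))⁻¹ + ((a * M.σ a)⁻¹ + 1) = 0 := by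
    intro a ha ha1
    by_contra hd
    apply hb
    obtain ⟨c, rfl⟩ : ∃ c, b = c * (((a + 1) * M.σ (a + 1))⁻¹ + ((a * M.σ a)⁻¹ + 1)) :=
      ⟨b / _, (div_mul_cancel₀ _ hd).symm⟩
    have := M.beta_add_right hπ hc c a 1
    rw [M.beta_eq_lam hπ hc c ha1, M.beta_eq_lam hπ hc c ha, div_eq_mul_inv, div_eq_mul_inv] at this
    rw [mul_add, mul_add, mul_one, beta_add_left _ _ hc, this, ← beta_add_left _ _ hc, beta_sq _ _ hc]
  have key2 : ∀ a : Fˣ, a ^ 7 = 1 := by
    intro a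
    apply Units.ext
    rw [Units.val_pow_eq_pow_val, Units.val_one]
    have ha := a.ne_zero
    generalize (a : F) = a at *
    by_cases ha1 : a + 1 = 0
    · have : a = 1 := by grobner
      rw [this, one_pow]
    have hs := M.σ_ne_zero ha
    have hs1 := M.σ_ne_zero ha1
    have h1 := key a ha ha1
    rw [map_add, map_one] at h1 hs1
    field_simp at h1
    have h2 := congrArg M.σ h1
    simp only [map_add, map_mul, map_one, map_zero, σσ, map_pow] at h2
    have h3 : M.σ a ^ 2 = a := by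
      generalize M.σ a = s at *
      grind
    have h4 := congrArg M.σ h3
    rw [map_pow, σσ] at h4
    have h5 : a * (a ^ 7 - 1) = 0 := by rw [← h4] at h3; linear_combination h3
    exact sub_eq_zero.mp ((mul_eq_zero.mp h5).resolve_left ha)
  have h7 := Nat.le_of_dvd (by norm_num) ((FiniteField.forall_pow_eq_one_iff F 7).mp key2)
  rw [← Nat.card_eq_fintype_card, M.card] at h7
  have : 2 ^ 5 ≤ 2 ^ (2 * m + 1) := Nat.pow_le_pow_right (by norm_num) (by omega)
  omega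

omit hc in
include M in
theorem exists_cubic : ∃ x : F, x ≠ 0 ∧ x + 1 ≠ 0 ∧ x ^ 2 + x + 1 ≠ 0 := by
  haveI := M.char2
  obtain ⟨x, hx0, hx1⟩ := M.exists_ne_zero_one
  refine ⟨x, hx0, fun h => hx1 (by grobner), fun h => ?_⟩
  have h1 := congrArg M.σ h
  simp only [map_add, map_pow, map_one, map_zero] at h1
  have h2 : (M.σ x - x) * (M.σ x + x - 1) = 0 := by grobner
  rcases mul_eq_zero.mp h2 with h3 | h3
  · rcases M.σ_eq_self (sub_eq_zero.mp h3) with h4 | h4
    · exact hx0 h4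
    · exact hx1 h4
  · exact M.σ_add_self_ne_one x (sub_eq_zero.mp h3)

include M in
theorem odd_part [Finite E] {a : E} (ha : a ∈ π.ker) (ha' : a ∈ commutator E) {p : ℕ}
    [hp : Fact p.Prime] (hp2 : p ≠ 2) (ho : orderOf a = p) : False := by
  obtain ⟨P, hP⟩ := (IsPGroup.of_card (n := 1) (by rw [Nat.card_zpowers, ho, pow_one]) :
      IsPGroup p (Subgroup.zpowers a)).exists_le_sylow
  have h1 := Cover.mem_commutator_of_transfer (P := (P : Subgroup E)) (hc ha) ha'
    (hP (Subgroup.mem_zpowers a)) (by rw [ho]; exact (Nat.Prime.coprime_iff_not_dvd hp.out).mpr P.not_dvd_index)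
  haveI := M.isCyclic_of_isPGroup hp2 (P.isPGroup'.map π)
  have h2 := commutative_of_cyclic_center_quotient (π.subgroupMap P) (by
    intro x hx
    have : (x : E) ∈ π.ker := congrArg Subtype.val hx
    exact Subgroup.mem_center_iff.mpr fun y => Subtype.ext (Subgroup.mem_center_iff.mp (hc this) y))
  have h3 : ⁅(P : Subgroup E), (P : Subgroup E)⁆ ≤ ⊥ := by
    rw [Subgroup.commutator_le]
    intro x hx y hy
    rw [Subgroup.mem_bot, commutatorElement_eq_one_iff_mul_comm]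
    exact congrArg Subtype.val (h2 ⟨x, hx⟩ ⟨y, hy⟩)
  have := Subgroup.mem_bot.mp (h3 h1)
  rw [this, orderOf_one] at ho
  exact hp.out.one_lt.ne ho

theorem even_part [Finite E] (hl : ∀ b, M.beta hπ b 1 0 = 1) {a : E} (ha : a ∈ π.ker)
    (ha' : a ∈ commutator E) (ho : orderOf a = 2) : False := by
  classical
  haveI := M.char2
  haveI := M.finF
  haveI := Fintype.ofFinite Fˣ
  set Qt := M.Q.comap π
  set Zt := M.Z.comap π
  have h1 := Cover.mem_commutator_of_transfer (P := Qt) (hc ha) ha'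
    (by rw [Subgroup.mem_comap, MonoidHom.mem_ker.mp ha]; exact M.Q.one_mem)
    (by rw [ho, Subgroup.index_comap_of_surjective _ hπ, index_Q]
        exact (M.odd_pred.mul M.odd_sq_add_one).coprime_two_left)
  have hcen : ∀ z ∈ Zt, ∀ x ∈ Qt, x * z = z * x := by
    rintro z ⟨b, hb⟩ x ⟨c, d, hx⟩
    symm
    rw [← commutatorElement_eq_one_iff_mul_comm, M.beta_eq hπ hc hb hx, beta_snd _ _ hc]
    by_cases hc0 : c = 0
    · rw [hc0, beta_z _ _ hc]
    · rw [M.beta_eq_lam hπ hc b hc0, hl]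
  have hZQ : Zt ≤ Qt := Subgroup.comap_mono M.Z_le_Q
  letI : CommGroup Zt := { (inferInstance : Group Zt) with
    mul_comm := fun x y => Subtype.ext (hcen _ y.2 _ (hZQ x.2)) }
  let s := Function.surjInv hπ
  have hs : ∀ g, π (s g) = g := Function.surjInv_eq hπ
  let φ : Fˣ → Zt →* Zt := fun k => MonoidHom.mk' (fun z => ⟨s (M.h k) * z * (s (M.h k))⁻¹, by
    obtain ⟨b, hb⟩ := z.2
    exact ⟨_, by rw [map_mul, map_mul, map_inv, hs, hb, h_conj_u, mul_zero]⟩⟩)
    (fun x y => Subtype.ext (by simp only [Subgroup.coe_mul]; group))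
  have hφ : ∀ k l z, φ k (φ l z) = φ (k * l) z := by
    intro k l z
    apply Subtype.ext
    change s (M.h k) * (s (M.h l) * z * (s (M.h l))⁻¹) * (s (M.h k))⁻¹ =
      s (M.h (k * l)) * z * (s (M.h (k * l)))⁻¹
    rw [← Cover.conj_eq_of_map_eq hc (a := s (M.h k) * s (M.h l)) (a' := s (M.h (k * l))) _
      (by simp [hs])]
    group
  let N : Zt →* Zt := ∏ k, φ k
  have hN : ∀ z, N z = ∏ k, φ k z := fun z => by simp [N]
  have hNφ : ∀ l z, N (φ l z) = N z := by
    intro l z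
    rw [hN, hN]
    simp only [hφ]
    exact Fintype.prod_equiv (Equiv.mulRight l) _ _ (fun k => rfl)
  have hcomm : ∀ x ∈ Qt, ∀ y ∈ Qt, ⁅x, y⁆ ∈ Zt := by
    rintro x ⟨a, b, hx⟩ y ⟨c, d, hy⟩
    rw [Subgroup.mem_comap, map_commutatorElement, hx, hy, commutatorElement_def, u_conj_u, u_inv,
      u_mul, CharTwo.add_self_eq_zero]
    exact M.z_mem_Z _
  have hsQ : ∀ x y, s (M.u x y) ∈ Qt := fun x y => ⟨x, y, hs _⟩
  let γ : F → F → Zt := fun x y => N ⟨⁅s (M.u x 0), s (M.u y 0)⁆, hcomm _ (hsQ _ _) _ (hsQ _ _)⟩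
  have hγ : ∀ (e f : E) (he : e ∈ Qt) (hf : f ∈ Qt) x b y d, π e = M.u x b → π f = M.u y d →
      N ⟨⁅e, f⁆, hcomm _ he _ hf⟩ = γ x y := by
    intro e f he hf x b y d h1 h2
    congr 2
    have hz : ∀ b, s (M.u 0 b) ∈ Zt := fun b => ⟨b, hs _⟩
    rw [Cover.comm_eq_of_map_eq hc (a' := s (M.u x 0) * s (M.u 0 b)) (b' := s (M.u y 0) * s (M.u 0 d))
      (by rw [map_mul, hs, hs, u_mul_z, zero_add, h1]) (by rw [map_mul, hs, hs, u_mul_z, zero_add, h2])]
    have e1 : ∀ b (f : E), f ∈ Qt → ⁅s (M.u 0 b), f⁆ = 1 := fun b f hf => by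
      rw [commutatorElement_eq_one_iff_mul_comm, hcen _ (hz b) _ hf]
    have e2 : ∀ b (f : E), f ∈ Qt → ⁅f, s (M.u 0 b)⁆ = 1 := fun b f hf => by
      rw [commutatorElement_eq_one_iff_mul_comm, hcen _ (hz b) _ hf]
    rw [comm_mul_left' _ _ _ (by rw [e1 _ _ (Qt.mul_mem (hsQ _ _) (hsQ _ _))]; simp),
      e1 _ _ (Qt.mul_mem (hsQ _ _) (hsQ _ _)), one_mul,
      comm_mul_right' _ _ _ (by rw [e2 _ _ (hsQ _ _)]; simp), e2 _ _ (hsQ _ _), mul_one]
  have γl : ∀ x x' y, γ (x + x') y = γ x' y * γ x y := by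
    intro x x' y
    rw [← hγ (s (M.u x 0) * s (M.u x' 0)) (s (M.u y 0)) (Qt.mul_mem (hsQ _ _) (hsQ _ _)) (hsQ _ _)
      _ _ _ _ (by rw [map_mul, hs, hs, u_mul]) (hs _), ← map_mul]
    congr 1
    exact Subtype.ext (comm_mul_left' _ _ _ (hcen _ (hcomm _ (hsQ _ _) _ (hsQ _ _)) _ (hsQ _ _)))
  have γr : ∀ x y y', γ x (y + y') = γ x y * γ x y' := by
    intro x y y'
    rw [← hγ (s (M.u x 0)) (s (M.u y 0) * s (M.u y' 0)) (hsQ _ _) (Qt.mul_mem (hsQ _ _) (hsQ _ _))
      _ _ _ _ (hs _) (by rw [map_mul, hs, hs, u_mul]), ← map_mul]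
    congr 1
    exact Subtype.ext (comm_mul_right' _ _ _ (hcen _ (hcomm _ (hsQ _ _) _ (hsQ _ _)) _ (hsQ _ _)))
  have γi : ∀ (k : Fˣ) x y, γ (k * x) (k * y) = γ x y := by
    intro k x y
    have e : ∀ x, π (s (M.h k) * s (M.u x 0) * (s (M.h k))⁻¹) = M.u (k * x) (k * M.σ k * 0) :=
      fun x => by rw [map_mul, map_mul, map_inv, hs, hs, h_conj_u]
    rw [← hγ _ _ ⟨_, _, e x⟩ ⟨_, _, e y⟩ _ _ _ _ (e x) (e y)]
    refine Eq.trans ?_ (hNφ k _)
    congr 1
    exact Subtype.ext (conj_comm' _ _ _).symm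
  have γ0 : ∀ y, γ 0 y = 1 := fun y => by simpa using γl 0 0 y
  have γ0' : ∀ y, γ y 0 = 1 := fun y => by simpa using γr y 0 0
  have γd : ∀ x y, x ≠ 0 → γ x y = γ 1 (y / x) := by
    intro x y hx
    rw [← γi (Units.mk0 x hx) 1, Units.val_mk0, mul_one, mul_div_cancel₀ _ hx]
  have γ1 : ∀ y, γ 1 y = 1 := by
    intro y
    obtain ⟨x, hx0, hx1, hx2⟩ := M.exists_cubic
    set c := y * (x * (x + 1)) / (x ^ 2 + x + 1)
    have e := γl x 1 c
    rw [γd _ _ hx1, γd x _ hx0, ← γr] at e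
    have e2 : y = c / (x + 1) + (c + c / x) := by
      simp only [c]; field_simp; grobner
    rw [e2, γr, e, ← γr, CharTwo.add_self_eq_zero, γ0']
  have γall : ∀ x y, γ x y = 1 := by
    intro x y
    by_cases hx : x = 0
    · rw [hx, γ0]
    · rw [γd x y hx, γ1]
  have hle : ⁅Qt, Qt⁆ ≤ N.ker.map Zt.subtype := by
    rw [Subgroup.commutator_le]
    rintro e ⟨x, b, he⟩ f ⟨y, d, hf⟩
    exact ⟨⟨_, hcomm _ ⟨x, b, he⟩ _ ⟨y, d, hf⟩⟩, (hγ e f ⟨x, b, he⟩ ⟨y, d, hf⟩ x b y d he hf).trans (γall _ _), rfl⟩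
  obtain ⟨z, hz, rfl⟩ := hle h1
  have hφz : ∀ k, φ k z = z := fun k => Subtype.ext (by
    change s (M.h k) * z * (s (M.h k))⁻¹ = z
    rw [Subgroup.mem_center_iff.mp (hc (show (z : E) ∈ π.ker from ha)), mul_inv_cancel_right])
  have h2 : N z = 1 := hz
  rw [hN] at h2
  simp only [hφz, Finset.prod_const, Finset.card_univ, ← Nat.card_eq_fintype_card, M.card_units] at h2
  have h3 := orderOf_dvd_of_pow_eq_one h2
  rw [← Subgroup.orderOf_coe] at h3
  exact M.odd_pred.not_two_dvd_nat (ho ▸ h3)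

theorem ker_eq_bot [Finite E] (hl : ∀ b, M.beta hπ b 1 0 = 1) (hk : π.ker ≤ commutator E) :
    π.ker = ⊥ := by
  by_contra h
  have h1 : Nat.card π.ker ≠ 1 := fun h1 => h (Subgroup.card_eq_one.mp h1)
  obtain ⟨p, hp, hd⟩ := Nat.exists_prime_and_dvd h1
  haveI := Fact.mk hp
  obtain ⟨⟨a, ha⟩, ho⟩ := exists_prime_orderOf_dvd_card' p hd
  rw [Subgroup.orderOf_mk] at ho
  by_cases h2 : p = 2
  · subst h2
    exact M.even_part hπ hc hl ha (hk ha) ho
  · exact M.odd_part hc ha (hk ha) h2 ho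

theorem ker_le_range_lam [Finite E] (hk : π.ker ≤ commutator E) {a : E} (ha : a ∈ π.ker) :
    ∃ b, a = M.beta hπ b 1 0 := by
  let L : Subgroup E :=
    { carrier := {a | ∃ b, a = M.beta hπ b 1 0}
      mul_mem' := by
        rintro _ _ ⟨b, rfl⟩ ⟨b', rfl⟩
        exact ⟨b + b', (M.beta_add_left hπ hc _ _ _ _).symm⟩
      one_mem' := ⟨0, (M.beta_zero hπ hc _ _).symm⟩
      inv_mem' := by
        rintro _ ⟨b, rfl⟩
        exact ⟨b, inv_eq_of_mul_eq_one_right (M.beta_sq hπ hc _ _ _)⟩ }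
  have hL : L ≤ π.ker := by rintro _ ⟨b, rfl⟩; exact M.beta_mem hπ _ _ _
  haveI : L.Normal := ⟨fun n hn g => by
    rw [Subgroup.mem_center_iff.mp (hc (hL hn)), mul_inv_cancel_right]; exact hn⟩
  let π' : E ⧸ L →* G := QuotientGroup.lift L π hL
  have hπ' : Function.Surjective π' := fun g => by
    obtain ⟨e, rfl⟩ := hπ g
    exact ⟨e, rfl⟩
  have hc' : π'.ker ≤ Subgroup.center _ := by
    intro x hx
    obtain ⟨x, rfl⟩ := QuotientGroup.mk_surjective x
    rw [Subgroup.mem_center_iff]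
    intro y
    obtain ⟨y, rfl⟩ := QuotientGroup.mk_surjective y
    rw [← QuotientGroup.mk_mul, ← QuotientGroup.mk_mul,
      Subgroup.mem_center_iff.mp (hc (show x ∈ π.ker from hx))]
  have h := M.ker_eq_bot hπ' hc' (fun b => by
    rw [← M.beta_eq hπ' hc' (e := (Function.surjInv hπ (M.u 0 b) : E))
      (f := (Function.surjInv hπ (M.u 1 0) : E)) (Function.surjInv_eq hπ _) (Function.surjInv_eq hπ _)]
    have : ((M.beta hπ b 1 0 : E) : E ⧸ L) = 1 := (QuotientGroup.eq_one_iff _).mpr ⟨b, rfl⟩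
    rw [← this]
    exact (map_commutatorElement (QuotientGroup.mk' L) _ _).symm) (by
    intro x hx
    obtain ⟨x, rfl⟩ := QuotientGroup.mk_surjective x
    have h1 : x ∈ commutator E := hk hx
    have h2 : (commutator E).map (QuotientGroup.mk' L) ≤ commutator (E ⧸ L) := by
      rw [map_commutator_eq]
      exact Subgroup.commutator_mono le_top le_top
    exact h2 ⟨x, h1, rfl⟩)
  have h2 : (a : E ⧸ L) ∈ π'.ker := ha
  rw [h, Subgroup.mem_bot, QuotientGroup.eq_one_iff] at h2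
  exact h2

omit hc in
include M in
theorem closed (hm : 2 ≤ m) : Cover.Closed G := fun _ _ _ _ h =>
  M.ker_eq_bot h.1 h.2.1 (M.lam_trivial h.1 h.2.1 hm) h.2.2

end Model

end Cfsg.Agent.Sz
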