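import Cfsg.Agent.Sz.Mult
import Cfsg.Agent.Sz.Simple

/-! The exceptional multiplier of `Sz(8)`. -/

set_option autoImplicit false

namespace Cfsg.Agent.Sz

open scoped commutatorElement

/-- a normalised two-cocycle with trivial action -/
structure Cocyc (G : Type*) [Group G] (A : Type*) [AddCommGroup A] where
  c : G → G → A
  one_left : ∀ g, c 1 g = 0
  cocyc : ∀ g h k, c g h + c (g * h) k = c h k + c g (h * k)

namespace Cocyc

variable {G : Type*} [Group G] {A : Type*} [AddCommGroup A] (C : Cocyc G A)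

/-- the central extension of a cocycle -/
def Ext (_C : Cocyc G A) : Type _ := A × G

instance instGroupExt : Group C.Ext :=
  letI : Mul C.Ext := ⟨fun x y => (x.1 + y.1 + C.c x.2 y.2, x.2 * y.2)⟩
  letI : One C.Ext := ⟨((0 : A), (1 : G))⟩
  letI : Inv C.Ext := ⟨fun x => (-x.1 - C.c x.2⁻¹ x.2, x.2⁻¹)⟩
  Group.ofLeftAxioms
    (fun x y z => Prod.ext (by
      change x.1 + y.1 + C.c x.2 y.2 + z.1 + C.c (x.2 * y.2) z.2 =
        x.1 + (y.1 + z.1 + C.c y.2 z.2) + C.c x.2 (y.2 * z.2)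
      have := C.cocyc x.2 y.2 z.2
      rw [← sub_eq_zero] at this ⊢
      rw [← this]; abel) (mul_assoc x.2 y.2 z.2))
    (fun x => Prod.ext (by
      change 0 + x.1 + C.c 1 x.2 = x.1
      rw [C.one_left, zero_add, add_zero]) (one_mul x.2))
    (fun x => Prod.ext (by
      change -x.1 - C.c x.2⁻¹ x.2 + x.1 + C.c x.2⁻¹ x.2 = 0
      abel) (inv_mul_cancel x.2))

/-- the element `(a, g)` of the extension -/
def el (a : A) (g : G) : C.Ext := (a, g)

theorem mk_mul (a b : A) (g h : G) : C.el a g * C.el b h = C.el (a + b + C.c g h) (g * h) := rfl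

theorem mk_inj {a b : A} {g h : G} : C.el a g = C.el b h ↔ a = b ∧ g = h := Prod.ext_iff

theorem mk_one : C.el 0 1 = 1 := rfl

theorem one_right (g : G) : C.c g 1 = 0 := by
  have := C.cocyc g 1 1
  rw [mul_one, mul_one, C.one_left, zero_add] at this
  simpa using this

/-- the projection of the extension -/
def proj : C.Ext →* G where
  toFun x := x.2
  map_one' := rfl
  map_mul' _ _ := rfl

theorem proj_mk (a : A) (g : G) : C.proj (C.el a g) = g := rfl

theorem proj_surj : Function.Surjective C.proj := fun g => ⟨C.el 0 g, rfl⟩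

theorem proj_ker_le : C.proj.ker ≤ Subgroup.center C.Ext := by
  rintro ⟨a, g⟩ hg
  obtain rfl : g = 1 := hg
  refine Subgroup.mem_center_iff.mpr ?_
  rintro ⟨b, h⟩
  change C.el b h * C.el a 1 = C.el a 1 * C.el b h
  rw [mk_mul, mk_mul, one_right, one_left, mul_one, one_mul, add_comm a]

theorem comm_mk {g h : G} (hc : g * h = h * g) :
    ⁅C.el 0 g, C.el 0 h⁆ = C.el (C.c g h - C.c h g) 1 := by
  rw [commutatorElement_def, mul_assoc, ← mul_inv_rev, mul_inv_eq_iff_eq_mul, mk_mul, mk_mul, mk_mul,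
    one_left, one_mul, hc]
  congr 1
  abel

instance finiteExt [Finite A] [Finite G] : Finite C.Ext := inferInstanceAs (Finite (A × G))

end Cocyc

namespace Model

variable {G : Type*} [Group G] {F : Type*} [Field F] (M : Model G F 1)

open Classical in
/-- coordinates on the Borel subgroup -/
noncomputable def co (g : G) : F × F × Fˣ :=
  if h : ∃ p : F × F × Fˣ, g = M.u p.1 p.2.1 * M.h p.2.2 then h.choose else (0, 0, 1)

theorem co_uh (x y : F) (k : Fˣ) : M.co (M.u x y * M.h k) = (x, y, k) := by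
  have h : ∃ p : F × F × Fˣ, M.u x y * M.h k = M.u p.1 p.2.1 * M.h p.2.2 := ⟨(x, y, k), rfl⟩
  rw [co, dif_pos h]
  obtain ⟨h1, h2, h3⟩ := M.uh_inj h.choose_spec
  exact Prod.ext h1.symm (Prod.ext h2.symm h3.symm)

theorem co_u (x y : F) : M.co (M.u x y) = (x, y, 1) := by
  rw [← M.co_uh, map_one, mul_one]

theorem co_one : M.co 1 = (0, 0, 1) := by rw [← M.co_u, u_zero]

/-- the cocycle on the Sylow subgroup -/
def c0 (x y t : F) : F := y * t ^ 2 + y ^ 2 * t ^ 4 + x ^ 5 * t ^ 2 + x * t ^ 6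

/-- the cocycle on the Borel subgroup -/
noncomputable def cB (g g' : G) : F := c0 (M.co g).1 (M.co g).2.1 ((M.co g).2.2 * (M.co g').1)

theorem cB_one (g : G) : M.cB 1 g = 0 := by
  simp [cB, co_one, c0]

theorem σ_four (x : F) : M.σ x = x ^ 4 := M.σ_eq x

include M in
theorem pow_eight (x : F) : x ^ 8 = x := pow_card_eq M.card x

theorem cB_cocyc {g h k : G} (hg : g ∈ M.B) (hh : h ∈ M.B) (hk : k ∈ M.B) :
    M.cB g h + M.cB (g * h) k = M.cB h k + M.cB g (h * k) := by
  haveI := M.char2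
  obtain ⟨x1, y1, k1, rfl⟩ := M.mem_B'.mp hg
  obtain ⟨x2, y2, k2, rfl⟩ := M.mem_B'.mp hh
  obtain ⟨x3, y3, k3, rfl⟩ := M.mem_B'.mp hk
  have key : ∀ (x y x' y' : F) (l l' : Fˣ), M.u x y * M.h l * (M.u x' y' * M.h l') =
      M.u (x + l * x') (y + l * M.σ l * y' + M.σ x * (l * x')) * M.h (l * l') := by
    intro x y x' y' l l'
    rw [mul_assoc, ← mul_assoc (M.h l), h_mul_u, ← u_mul, map_mul]
    simp only [mul_assoc]
  simp only [key, cB, co_uh, σ_four, Units.val_mul, c0]
  have h7 : (k1 : F) ^ 7 = 1 := by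
    have := M.pow_eight k1
    exact mul_left_cancel₀ k1.ne_zero (by rw [← pow_succ', this, mul_one])
  have h8 := M.pow_eight x1
  generalize (k1 : F) = a at *
  generalize (k2 : F) = b at *
  have e1 : c0 x2 y2 (b * x3) = c0 (a * x2) (a * a ^ 4 * y2) (a * b * x3) := by
    simp only [c0]
    linear_combination (-(y2 * (b * x3) ^ 2) - (y2 ^ 2 * (b * x3) ^ 4) * (a ^ 7 + 1)
      - x2 ^ 5 * (b * x3) ^ 2 - x2 * (b * x3) ^ 6) * h7
  simp only [c0] at e1
  rw [e1, mul_add a, ← mul_assoc a b]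
  generalize a * x2 = X
  generalize a * a ^ 4 * y2 = Y
  generalize a * b * x3 = T
  clear e1 h7 key hg hh hk
  grobner

/-- coset representatives of the Borel subgroup -/
noncomputable def sec (ω : M.Ω) : G :=
  match ω with
  | none => 1
  | some (x, y) => M.u x y * M.w

theorem sec_inf : M.sec M.inf = 1 := rfl
theorem sec_p (x y : F) : M.sec (M.p x y) = M.u x y * M.w := rfl

theorem sec_smul (ω : M.Ω) : M.sec ω • M.inf = ω := by
  rcases M.cases_Ω ω with rfl | ⟨x, y, rfl⟩
  · rw [sec_inf, one_smul]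
  · rw [sec_p, mul_smul, w_smul_inf, u_smul_zero]

/-- the Borel component -/
noncomputable def bc (g : G) (ω : M.Ω) : G := (M.sec (g • ω))⁻¹ * g * M.sec ω

theorem bc_mem (g : G) (ω : M.Ω) : M.bc g ω ∈ M.B := by
  rw [mem_B, bc, mul_smul, mul_smul, sec_smul, inv_smul_eq_iff, sec_smul]

theorem bc_mul (g h : G) (ω : M.Ω) : M.bc (g * h) ω = M.bc g (h • ω) * M.bc h ω := by
  simp only [bc, mul_smul]; group

theorem bc_one (ω : M.Ω) : M.bc 1 ω = 1 := by simp [bc]

theorem bc_u_inf (x y : F) : M.bc (M.u x y) M.inf = M.u x y := by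
  simp [bc, sec_inf]

theorem bc_u_p (x y a b : F) : M.bc (M.u x y) (M.p a b) = 1 := by
  have : M.u x y • M.p a b = M.p (x + a) (y + b + M.σ x * a) := by
    rw [← u_smul_zero, ← mul_smul, u_mul, u_smul_zero]
  rw [bc, this, sec_p, sec_p, ← u_mul]; group

/-- the corestricted cocycle -/
noncomputable def cocyc : Cocyc G F :=
  haveI := Fintype.ofFinite M.Ω
  { c := fun g h => ∑ ω : M.Ω, M.cB (M.bc g (h • ω)) (M.bc h ω)
    one_left := fun g => by simp [bc_one, cB_one]
    cocyc := fun g h k => by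
      rw [← Equiv.sum_comp (MulAction.toPerm k) (fun ω => M.cB (M.bc g (h • ω)) (M.bc h ω)),
        ← Finset.sum_add_distrib, ← Finset.sum_add_distrib]
      refine Finset.sum_congr rfl fun ω _ => ?_
      simp only [MulAction.toPerm_apply, bc_mul, mul_smul]
      exact M.cB_cocyc (M.bc_mem _ _) (M.bc_mem _ _) (M.bc_mem _ _) }

theorem cocyc_u (x y x' y' : F) : M.cocyc.c (M.u x y) (M.u x' y') = c0 x y x' := by
  classical
  simp only [cocyc]
  rw [Finset.sum_eq_single M.inf]
  · rw [u_smul_inf, bc_u_inf, bc_u_inf, cB, co_u, co_u]; simp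
  · intro ω _ hω
    rcases M.cases_Ω ω with rfl | ⟨a, b, rfl⟩
    · exact absurd rfl hω
    · rw [u_smul_p, bc_u_p, cB_one]
  · simp

include M in
theorem exists_iota : ∃ ι : ZMod 2 × ZMod 2 →+ F, (∀ b, ∃ v, b = ι v ∨ b = ι v + 1) ∧
    ∀ v, ι v + ι v ^ 2 = 0 → v = 0 := by
  haveI := M.char2
  haveI := M.finF
  obtain ⟨x, hx0, hx1, hx2⟩ := M.exists_cubic
  let φ : ZMod 2 →+* F := ZMod.castHom (dvd_refl 2) F
  let ι : ZMod 2 × ZMod 2 →+ F :=
    { toFun := fun v => φ v.1 * x + φ v.2 * x ^ 2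
      map_zero' := by simp
      map_add' := fun v w => by simp only [Prod.fst_add, Prod.snd_add, map_add]; ring }
  let κ : ZMod 2 × ZMod 2 × ZMod 2 →+ F :=
    { toFun := fun v => ι v.2 + φ v.1
      map_zero' := by simp
      map_add' := fun v w => by simp only [Prod.fst_add, Prod.snd_add, map_add]; ring }
  have h01 : ∀ a : ZMod 2, a = 0 ∨ a = 1 := by decide
  have hκ : Function.Injective κ := by
    rw [injective_iff_map_eq_zero]
    rintro ⟨a, b, c⟩ h
    change φ b * x + φ c * x ^ 2 + φ a = 0 at h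
    have hx3 : x * (x + 1) ≠ 0 := mul_ne_zero hx0 hx1
    have hx4 : (x + 1) ^ 2 ≠ 0 := pow_ne_zero _ hx1
    have hx5 : x ^ 2 ≠ 0 := pow_ne_zero _ hx0
    rcases h01 a with rfl | rfl <;> rcases h01 b with rfl | rfl <;> rcases h01 c with rfl | rfl <;>
      simp only [map_zero, map_one] at h
    · rfl
    · exact absurd (by grobner) hx5
    · exact absurd (by grobner) hx0
    · exact absurd (by grobner) hx3
    · exact absurd (by grobner) (one_ne_zero (α := F))
    · exact absurd (by grobner) hx4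
    · exact absurd (by grobner) hx1
    · exact absurd (by grobner) hx2
  have hκ2 : Function.Bijective κ := hκ.bijective_of_nat_card_le (by
    rw [M.card]; simp)
  refine ⟨ι, fun b => ?_, fun v hv => ?_⟩
  · obtain ⟨⟨a, v⟩, rfl⟩ := hκ2.2 b
    refine ⟨v, ?_⟩
    rcases h01 a with rfl | rfl
    · left; change ι v + φ 0 = _; simp
    · right; change ι v + φ 1 = _; simp
  · have : ι v * (ι v + 1) = 0 := by linear_combination hv
    rcases mul_eq_zero.mp this with h | h
    · have := hκ (a₁ := (0, v)) (a₂ := 0) (by change ι v + φ 0 = κ 0; simp [h])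
      exact congrArg Prod.snd this
    · have := hκ (a₁ := (1, v)) (a₂ := 0) (by change ι v + φ 1 = κ 0; simp [h])
      exact absurd (congrArg Prod.fst this) (by simp)

theorem exists_lam {E : Type*} [Group E] [Finite E] {π : E →* G} (h : IsStemExtension π)
    (ι : ZMod 2 × ZMod 2 →+ F) (hι : ∀ b, ∃ v, b = ι v ∨ b = ι v + 1) :
    ∃ l : Multiplicative (ZMod 2 × ZMod 2) →* π.ker, Function.Surjective l ∧
      ∀ v, (l v : E) = M.beta h.1 (ι v.toAdd) 1 0 := by
  refine ⟨MonoidHom.mk' (fun v => ⟨M.beta h.1 (ι v.toAdd) 1 0, M.beta_mem _ _ _ _⟩) fun v w =>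
    Subtype.ext ?_, ?_, fun v => rfl⟩
  · change M.beta h.1 (ι (v.toAdd + w.toAdd)) 1 0 = _
    rw [map_add, M.beta_add_left h.1 h.2.1]; rfl
  · rintro ⟨a, ha⟩
    obtain ⟨b, rfl⟩ := M.ker_le_range_lam h.1 h.2.1 h.2.2 ha
    obtain ⟨v, rfl | rfl⟩ := hι b
    · exact ⟨Multiplicative.ofAdd v, rfl⟩
    · refine ⟨Multiplicative.ofAdd v, Subtype.ext ?_⟩
      change M.beta h.1 (ι v) 1 0 = M.beta h.1 (ι v + 1) 1 0
      rw [M.beta_add_left h.1 h.2.1, M.lam_one h.1 h.2.1, mul_one]

end Model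

universe u

theorem Model.mult_eight {G F : Type u} [Group G] [Field F] (M : Model G F 1) :
    HasSchurMultiplier G (Multiplicative (ZMod 2 × ZMod 2)) := by
  obtain ⟨ι, hι1, hι2⟩ := M.exists_iota
  refine ⟨?_, fun Γ _ _ σ h => (M.exists_lam h ι hι1).imp fun l hl => hl.1⟩
  haveI := M.finF
  haveI := M.finG
  haveI := M.char2
  let C := M.cocyc
  let Γ := commutator C.Ext
  let π : Γ →* G := C.proj.comp Γ.subtype
  have hs : Function.Surjective π := by
    intro g
    have h1 : Γ.map C.proj = ⊤ := by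
      rw [map_commutator_eq, MonoidHom.range_eq_top.mpr C.proj_surj, ← commutator_def, M.commutator_eq_top]
    obtain ⟨e, he, rfl⟩ : g ∈ Γ.map C.proj := h1 ▸ Subgroup.mem_top g
    exact ⟨⟨e, he⟩, rfl⟩
  have hst : IsStemExtension π := by
    refine ⟨hs, fun e he => ?_, fun e _ => ?_⟩
    · rw [Subgroup.mem_center_iff]
      intro f
      exact Subtype.ext (Subgroup.mem_center_iff.mp (C.proj_ker_le (show (e : C.Ext) ∈ C.proj.ker from he)) f)
    · have h1 := Cover.commutator_le_of_map_eq_top C.proj_ker_le Γ (fun e => by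
        obtain ⟨s, hs⟩ := hs (C.proj e)
        exact ⟨s, s.2, hs⟩) e.2
      rw [← Subgroup.map_subtype_commutator] at h1
      obtain ⟨f, hf, hfe⟩ := h1
      rwa [← Subtype.ext hfe]
  obtain ⟨l, hl, hl2⟩ := M.exists_lam hst ι hι1
  refine ⟨Γ, inferInstance, inferInstance, π, hst, ⟨(MulEquiv.ofBijective l ⟨?_, hl⟩).symm⟩⟩
  rw [injective_iff_map_eq_one]
  intro v hv
  have h1 := hl2 v
  rw [hv] at h1
  have h2 : (1 : C.Ext) = ⁅Γ.subtype (Function.surjInv hs (M.u 0 (ι v.toAdd))),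
      Γ.subtype (Function.surjInv hs (M.u 1 0))⁆ :=
    (congrArg Γ.subtype h1).trans (map_commutatorElement _ _ _)
  rw [Cover.comm_eq_of_map_eq C.proj_ker_le (a := Γ.subtype (Function.surjInv hs (M.u 0 (ι v.toAdd))))
    (b := Γ.subtype (Function.surjInv hs (M.u 1 0)))
    (a' := C.el 0 (M.u 0 (ι v.toAdd))) (b' := C.el 0 (M.u 1 0)) (Function.surjInv_eq hs _)
    (Function.surjInv_eq hs _), C.comm_mk (M.z_comm _ _ _), M.cocyc_u, M.cocyc_u] at h2
  have h3 := (C.mk_inj.mp (C.mk_one.trans h2)).1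
  exact hι2 v.toAdd (by rw [h3]; simp [Model.c0])

end Cfsg.Agent.Sz
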